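import Cfsg.Agent.Lib.Q5A.Def
import Cfsg.Agent.Lib.Dim3.L2
import Cfsg.Agent.Lib.D3.L27
import Cfsg.Agent.Lib.PSL2.SmallIso
import Cfsg.Agent.S2086

/-!
# Q5 branch L2: representations of degree five of `L₂(r)`
-/

set_option autoImplicit false

namespace Cfsg.Lib.Q5A

open scoped MatrixGroups Matrix commutatorElement
open Cfsg.Geo Cfsg.Lib.Asch Cfsg.Lib.Linear Cfsg.Lib.Q5 Cfsg.Lib.PSL2 Cfsg.Lib.D3

variable {K : Type*} [Field K] [IsAlgClosed K] {E : Type} [Field E] [Fintype E]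

omit [IsAlgClosed K] in
theorem noZ_psl2 {P : Subgroup (G5 K)} [Finite P] (h : QS P) (e : Sq P ≃* PSL(2, E)) (h4 : 4 ≤ Fintype.card E) :
    NoZ P := by
  by_cases h9 : Fintype.card E = 4 ∨ Fintype.card E = 9
  · refine h.noZ_of_card ?_
    rw [Nat.card_congr e.toEquiv]
    rcases h9 with c | c
    · rw [card_psl_of_eq (q := 4) (n := 60) (by simpa) (by norm_num)]; norm_num
    · rw [card_psl_of_eq (q := 9) (n := 360) (by simpa) (by norm_num)]; norm_num
  · refine h.noZ e (Cfsg.Agent.S2086.result rfl 2 le_rfl (fun _ => h4) (by simpa using h9)) fun d => ?_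
    rw [Nat.card_congr Multiplicative.toAdd, Nat.card_zmod] at d
    exact absurd (d.trans (Nat.gcd_dvd_left _ _)) (by norm_num)

/-- The torus moves the non-trivial characters of the unipotent subgroup in orbits of length at most five. -/
theorem card_psl2 {ρ : PSL(2, E) →* G5 K} (h : Function.Injective ρ) (hK : (Fintype.card E : K) ≠ 0) :
    ∃ m, 0 < m ∧ m ≤ 5 ∧ Fintype.card E - 1 ∣ 2 * m := by
  obtain ⟨a, ha⟩ := IsCyclic.exists_ofOrder_eq_natCard (α := Eˣ)
  obtain ⟨s, hs⟩ := (aff_mem_pslSub_iff (a ^ 2) (0 : E)).2 ⟨a, by simp [pow_two]⟩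
  choose u hu using fun b : E => (aff_mem_pslSub_iff 1 b).2 (by simp)
  replace hs : toP s = aff (a ^ 2) 0 := hs
  replace hu : ∀ b, toP (u b) = aff 1 b := hu
  obtain ⟨U, hU⟩ : ∃ U : Multiplicative E →* G5 K, ∀ b, U b = ρ (u b.toAdd) :=
    ⟨ρ.comp (MonoidHom.mk' (fun b => u b.toAdd) fun b c => toP_injective (by
      rw [map_mul toP, hu, hu, hu, aff_mul]; simp [add_comm])), fun _ => rfl⟩
  have iU : Function.Injective U := fun b c e => by
    rw [hU, hU] at e
    have := congrArg toP (h e)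
    simpa [hu, aff_inj] using this
  have cj : ∀ (m : ℕ) (b : E), ρ (s ^ m) * U (.ofAdd b) * (ρ (s ^ m))⁻¹ = U (.ofAdd ((a ^ (2 * m) : Eˣ) * b)) :=
    fun m b => by
      rw [hU, hU, ← map_inv, ← map_mul, ← map_mul]
      refine congrArg ρ (toP_injective ?_)
      rw [map_mul, map_mul, map_inv, map_pow, hu, hu, hs, aff_zero_pow, toAdd_ofAdd, toAdd_ofAdd, aff_conj_aff_one,
        pow_mul]
  haveI : Finite U.range := Finite.of_surjective _ U.rangeRestrict_surjective
  obtain ⟨k, χ, w⟩ := exists_wt U.range (by rintro _ ⟨b, rfl⟩ _ ⟨c, rfl⟩; rw [← map_mul, mul_comm, map_mul]) (by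
    rwa [← Nat.card_congr (MonoidHom.ofInjective iU).toEquiv, Nat.card_congr Multiplicative.toAdd,
      Nat.card_eq_fintype_card])
  let f : E → U.range := fun b => U.rangeRestrict (.ofAdd b)
  obtain ⟨j, hj⟩ : ∃ j, χ j (f 1) ≠ 1 := by
    by_contra! n
    have := iU ((congrArg Subtype.val (w.eq_one n)).trans (map_one U).symm)
    exact one_ne_zero (ofAdd_eq_one.1 this)
  choose σ _ hσ using fun m : ℕ => w.perm (ρ (s ^ m))
  have key : ∀ m n : ℕ, m < n → n ≤ 5 → σ m j = σ n j → ∃ m, 0 < m ∧ m ≤ 5 ∧ Fintype.card E - 1 ∣ 2 * m :=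
    fun m n l hn e => by
      refine ⟨n - m, by omega, by omega, ?_⟩
      rw [← Nat.card_eq_fintype_card, ← Nat.card_units, ← ha, orderOf_dvd_iff_pow_eq_one]
      by_contra ne
      have d : ((a ^ (2 * n) : Eˣ) : E) - (a ^ (2 * m) : Eˣ) ≠ 0 := fun z => ne (by
        refine mul_left_cancel (a := a ^ (2 * m)) ?_
        rw [← pow_add, mul_one, show 2 * m + 2 * (n - m) = 2 * n by omega]
        exact Units.ext (sub_eq_zero.1 z))
      have z : ∀ b, χ (σ m j) (f b) = 1 := fun b => by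
        obtain ⟨c, rfl⟩ := mul_left_surjective₀ d b
        have e1 := hσ m (f c) (f _) (cj m c) j
        have e2 := hσ n (f c) (f _) (cj n c) j
        rw [← e, ← e1, ← mul_inv_eq_one, ← map_inv, ← map_mul] at e2
        rw [← e2]
        simp only [f, ← map_inv, ← map_mul, sub_mul, sub_eq_add_neg, add_mul, neg_mul, ofAdd_add, ofAdd_neg]
      exact hj ((hσ m (f 1) (f _) (cj m 1) j).symm.trans (z _))
  obtain ⟨m, n, ne, e⟩ := Fintype.exists_ne_map_eq_of_card_lt (fun m : Fin 6 => σ m j) (by simp)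
  rcases lt_or_gt_of_ne (Fin.val_ne_of_ne ne) with l | l
  exacts [key m n l (by omega) e, key n m l (by omega) e.symm]

omit [IsAlgClosed K] in
theorem cast_ne (p : ℕ) [hp : Fact p.Prime] [CharP K p] {l : ℕ} (hl : l.Prime) (h : p ≠ l) : (l : K) ≠ 0 := fun e =>
  h ((Nat.prime_dvd_prime_iff_eq hp.out hl).1 ((CharP.cast_eq_zero_iff K p l).1 e))

theorem not_L27 (p : ℕ) [hp : Fact p.Prime] [CharP K p] (h7 : p ≠ 7) {ρ : L27 →* G5 K} (h : Rp ρ) : False := by
  have g := g168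
  have s := h.scott g.gen
  have a2 := g.a2
  rw [sq] at a2
  have r1 : ((ρ (toL (m7 0 (-1) 1 0))).1 - 1).rank ≤ 2 := by
    by_cases h2 : p = 2
    · subst h2
      exact rank_inv_two (by rw [← map_mul, a2, map_one])
    · have : NeZero (2 : K) := ⟨by exact_mod_cast cast_ne (K := K) p Nat.prime_two h2⟩
      refine (h.ta (s := toL (m7 2 3 3 5)) a2 g.a1 ?_ ?_ (conj7 (m7 0 2 3 1) (by decide +kernel)) ?_).2.le
      · rw [← map_mul, ← map_mul, toL_eq_iff]; decide +kernel
      · rw [Ne, toL_eq_iff]; decide +kernel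
      · rw [← map_mul]; exact conj7 (m7 0 3 2 1) (by decide +kernel)
  have r2 : ((ρ (toL (m7 0 1 (-1) (-1)))).1 - 1).rank ≤ 4 := by
    have b3 : ρ (toL (m7 0 1 (-1) (-1))) ^ 3 = 1 := by rw [← map_pow, g.b3, map_one]
    by_cases h3 : p = 3
    · subst h3
      exact rank_unip 3 (n := 1) b3
    · obtain ⟨c, hc⟩ := isConj_iff.1 (ρ.map_isConj g.br)
      exact rank_real (by decide) (cast_ne p Nat.prime_three h3) b3 (hc.trans (map_inv ρ _))
  obtain ⟨c, hc⟩ := isConj_iff.1 (ρ.map_isConj g.ur)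
  have r3 := rank_three (by norm_num : Nat.Prime 7) (cast_ne p (by norm_num) h7) (by rw [← map_pow, g.u7, map_one])
    ((map_ne_one_iff ρ h.inj).2 g.u1) (hc.trans (map_pow ρ _ _)) (by norm_num) (by norm_num)
  omega

theorem psl2 (p : ℕ) [hp : Fact p.Prime] [CharP K p] {P : Subgroup (G5 K)} [Finite P] (h : QS P)
    (e : Sq P ≃* PSL(2, E)) : Real P ∨ (p ≠ 11 ∧ Fintype.card E = 11) := by
  have := h.simple
  have := e.symm.isSimpleGroup
  have h4 : 4 ≤ Fintype.card E := Nat.card_eq_fintype_card (α := E) ▸ four_le_card_of_simple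
  obtain ⟨ρ, hρ, rfl⟩ := rp_of h (noZ_psl2 h e h4) e
  obtain ⟨l, _⟩ := CharP.exists E
  have hl : Fact l.Prime := ⟨CharP.char_is_prime E l⟩
  by_cases hlp : p = l
  · subst hlp
    refine .inl (hρ.real p fun x hx => (Dim3.psl_real_or x).elim id fun ⟨y, hy⟩ => ?_)
    have : x ^ p = 1 := toP_injective (by simpa only [map_pow, map_one] using pow_char_of_mem_unip p hy)
    rw [orderOf_eq_one_iff.1 (Nat.Coprime.eq_one_of_dvd hx (orderOf_dvd_of_pow_eq_one this)), inv_one]
  by_cases hs : IsSquare (-1 : E)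
  · exact .inl (hρ.real p fun x _ => Dim3.psl_real hs x)
  rw [FiniteField.isSquare_neg_one_iff, not_not] at hs
  obtain ⟨n, -, hn⟩ := FiniteField.card E l
  obtain ⟨m, m0, m5, hm⟩ := card_psl2 hρ.inj (by
    rw [hn]; push_cast; exact pow_ne_zero _ (cast_ne p hl.out hlp))
  have hm' := Nat.le_of_dvd (by omega) hm
  have hd : ∀ r : ℕ, r.Prime → Fintype.card E = r → p ≠ r := fun r hr c z => hlp (by
    rw [z, eq_comm, ← Nat.prime_dvd_prime_iff_eq hl.out hr, ← c, hn]
    exact dvd_pow_self _ n.ne_zero)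
  by_cases h7 : Fintype.card E = 7
  · obtain ⟨f⟩ := equiv_L27 h7
    refine (not_L27 p (hd 7 (by norm_num) h7) (ρ := ρ.comp f.symm.toMonoidHom)
      ⟨hρ.inj.comp f.symm.injective, ?_, fun g => hρ.det _⟩).elim
    rw [MonoidHom.range_comp, MonoidHom.range_eq_top.2 f.symm.surjective, ← MonoidHom.range_eq_map]
    exact hρ.irr
  · have h11 : Fintype.card E = 11 := by omega
    exact .inr ⟨hd 11 (by norm_num) h11, h11⟩

end Cfsg.Lib.Q5A
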