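import Cfsg.Agent.Lib.Q5A.Def
import Cfsg.Agent.Lib.Linear.Simple

/-!
# Q5 branch A: local data of `L₃(r)`, `r` odd
-/

set_option autoImplicit false

namespace Cfsg.Lib.Q5A

open scoped MatrixGroups Matrix commutatorElement

namespace L3

open Matrix.SpecialLinearGroup Cfsg.Lib.Linear

/-- An integral matrix of determinant one. -/
def z (A : Matrix (Fin 3) (Fin 3) ℤ) (h : A.det = 1 := by rw [Matrix.det_fin_three]; decide) : SL(3, ℤ) := ⟨A, h⟩

def t : SL(3, ℤ) := z !![-1, 0, 0; 0, 1, 0; 0, 0, -1]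
def s : SL(3, ℤ) := z !![-1, 0, 0; 0, -1, 0; 0, 0, 1]
def a : SL(3, ℤ) := z !![1, 0, 1; 0, 1, 0; 0, 0, 1]
def a' : SL(3, ℤ) := z !![1, 0, -1; 0, 1, 0; 0, 0, 1]
def b : SL(3, ℤ) := z !![1, 0, 0; 0, 1, 0; -1, 0, 1]
def b' : SL(3, ℤ) := z !![1, 0, 0; 0, 1, 0; 1, 0, 1]
def x : SL(3, ℤ) := z !![1, 1, 0; 0, 1, 0; 0, 0, 1]
def y : SL(3, ℤ) := z !![1, 0, 0; 0, 1, 1; 0, 0, 1]
def u : SL(3, ℤ) := z !![1, 0, 0; 1, 1, 0; 0, 0, 1]
def v : SL(3, ℤ) := z !![1, 0, 0; 0, 1, 0; 0, 1, 1]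
def w : SL(3, ℤ) := z !![0, 0, 1; 0, 1, 0; -1, 0, 0]

theorem cj {p q : SL(3, ℤ)} (g : SL(3, ℤ)) (h : g * p = q * g := by decide +kernel) : IsConj p q :=
  isConj_iff.2 ⟨g, mul_inv_eq_iff_eq_mul.2 h⟩

theorem Hz_map {X Y : Type*} [Group X] [Group Y] (f : X →* Y) {a u v w : X} (h : Hz a u v w) :
    Hz (f a) (f u) (f v) (f w) :=
  ⟨by simpa using congrArg f h.e, by simpa using congrArg f h.wu, by simpa using congrArg f h.wv, f.map_isConj h.c1,
    f.map_isConj h.c2, f.map_isConj h.c3, map_mul f w u ▸ f.map_isConj h.c4, map_mul f w v ▸ f.map_isConj h.c5⟩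

theorem h1 : Hz a x y a :=
  ⟨by decide +kernel, by decide +kernel, by decide +kernel, cj (z !![1, 0, 0; 0, 0, 1; 0, -1, 0]),
    cj (z !![0, -1, 0; 1, 0, 0; 0, 0, 1]), .refl _, cj (z !![1, 0, 0; 0, 1, 0; 0, -1, 1]), cj u⟩

theorem h2 : Hz a v u b' :=
  ⟨by decide +kernel, by decide +kernel, by decide +kernel, cj (z !![0, 1, 0; 0, 0, 1; 1, 0, 0]),
    cj (z !![0, 0, 1; 1, 0, 0; 0, 1, 0]), cj (z !![0, 0, 1; 0, -1, 0; 1, 0, 0]), cj (z !![0, 1, 0; 0, -1, 1; 1, 0, 0]),
    cj (z !![0, 0, 1; 1, 0, 0; 1, 1, 0])⟩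

theorem h3 : Hz a u a y :=
  ⟨by decide +kernel, by decide +kernel, by decide +kernel, cj (z !![0, 0, 1; 1, 0, 0; 0, 1, 0]), .refl _,
    cj (z !![0, -1, 0; 1, 0, 0; 0, 0, 1]), cj (z !![0, -1, 0; 1, 0, 0; 0, 1, 1]), cj u⟩

theorem h4 : Hz a a v x :=
  ⟨by decide +kernel, by decide +kernel, by decide +kernel, .refl _, cj (z !![0, 1, 0; 0, 0, 1; 1, 0, 0]),
    cj (z !![1, 0, 0; 0, 0, 1; 0, -1, 0]), cj (z !![1, 0, 0; 0, 1, 0; 0, -1, 1]), cj (z !![1, 0, 0; 0, 0, 1; 1, -1, 0])⟩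

variable {E : Type*} [Field E]

/-- Reduction. -/
abbrev ψ (E : Type*) [Field E] : SL(3, ℤ) →* SL(3, E) := Matrix.SpecialLinearGroup.map (Int.castRingHom E)

theorem ψ_ap (p : SL(3, ℤ)) (i j : Fin 3) : (ψ E p).1 i j = (p.1 i j : E) := rfl

theorem mul_ap (p q : SL(3, E)) (i j : Fin 3) :
    (p * q).1 i j = p.1 i 0 * q.1 0 j + p.1 i 1 * q.1 1 j + p.1 i 2 * q.1 2 j := by
  change (p.1 * q.1) i j = _
  rw [Matrix.mul_apply, Fin.sum_univ_three]

theorem ψa : ψ E a = transvection (show (0 : Fin 3) ≠ 2 by decide) 1 := by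
  ext i j; rw [ψ_ap]; fin_cases i <;> fin_cases j <;> simp [a, z, transvection_coe]

theorem ψx : ψ E x = transvection (show (0 : Fin 3) ≠ 1 by decide) 1 := by
  ext i j; rw [ψ_ap]; fin_cases i <;> fin_cases j <;> simp [x, z, transvection_coe]

theorem ψy : ψ E y = transvection (show (1 : Fin 3) ≠ 2 by decide) 1 := by
  ext i j; rw [ψ_ap]; fin_cases i <;> fin_cases j <;> simp [y, z, transvection_coe]

theorem tv_pow {i j : Fin 3} (h : i ≠ j) (n : ℕ) : transvection h (1 : E) ^ n = transvection h (n : E) := by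
  induction n with
  | zero => simp
  | succ n ih => rw [pow_succ, ih, ← transvection_add, Nat.cast_succ]

theorem gen (H : Subgroup SL(3, E)) (hx : ψ E x ∈ H) (hy : ψ E y ∈ H)
    (h : ∀ g, g * ψ E t = ψ E t * g → g * ψ E a * g⁻¹ ∈ H) : H = ⊤ := by
  rw [ψx] at hx
  rw [ψy] at hy
  have n01 : (0 : Fin 3) ≠ 1 := by decide
  have n02 : (0 : Fin 3) ≠ 2 := by decide
  have n12 : (1 : Fin 3) ≠ 2 := by decide
  have k : ∀ c : E, transvection n02 c ∈ H ∧ transvection n02.symm (-c) ∈ H := fun c => by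
    by_cases c0 : c = 0
    · simp [c0]
    let d : SL(3, E) := ⟨!![c, 0, 0; 0, c⁻¹, 0; 0, 0, 1], by simp [Matrix.det_fin_three, c0]⟩
    have d1 : d * ψ E t = ψ E t * d := by
      ext i j; simp only [mul_ap, ψ_ap]; fin_cases i <;> fin_cases j <;> simp [d, t, z]
    have d2 : d * ψ E a * d⁻¹ = transvection n02 c := by
      rw [mul_inv_eq_iff_eq_mul]
      ext i j; simp only [mul_ap, ψ_ap]; fin_cases i <;> fin_cases j <;> simp [d, a, z, transvection_coe]
    have w1 : ψ E w * ψ E t = ψ E t * ψ E w := by rw [← map_mul, ← map_mul, show w * t = t * w by decide +kernel]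
    have w2 : ψ E w * transvection n02 c * (ψ E w)⁻¹ = transvection n02.symm (-c) := by
      rw [mul_inv_eq_iff_eq_mul]
      ext i j; simp only [mul_ap, ψ_ap]; fin_cases i <;> fin_cases j <;> simp [w, z, transvection_coe]
    refine ⟨d2 ▸ h d d1, ?_⟩
    have := h (ψ E w * d) (by rw [mul_assoc, d1, ← mul_assoc, w1, mul_assoc])
    rwa [mul_inv_rev, mul_assoc _ d, mul_assoc _ (d * _), ← mul_assoc (d * _), d2, ← mul_assoc, w2] at this
  have c : ∀ {p q : SL(3, E)}, p ∈ H → q ∈ H → ⁅p, q⁆ ∈ H := fun hp hq =>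
    mul_mem (mul_mem (mul_mem hp hq) (inv_mem hp)) (inv_mem hq)
  have k20 : ∀ c : E, transvection n02.symm c ∈ H := fun c => neg_neg c ▸ (k (-c)).2
  have k21 : ∀ e : E, transvection n12.symm e ∈ H := fun e => by
    simpa only [commutator_transvection _ _ n12.symm, mul_one] using c (k20 e) hx
  have k10 : ∀ e : E, transvection n01.symm e ∈ H := fun e => by
    simpa only [commutator_transvection _ _ n01.symm, one_mul] using c hy (k20 e)
  refine eq_top_of_transvection_mem H fun i j n e => ?_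
  fin_cases i <;> fin_cases j
  · exact absurd rfl n
  · simpa only [commutator_transvection _ _ n01, mul_one] using c (k e).1 (k21 1)
  · exact (k e).1
  · exact k10 e
  · exact absurd rfl n
  · simpa only [commutator_transvection _ _ n12, one_mul] using c (k10 1) (k e).1
  · exact k20 e
  · exact k21 e
  · exact absurd rfl n

end L3

open L3 in
/-- With `π : SL₃(E) → PSL₃(E)` and `x i j c` the elementary transvection: `t = diag(-1,1,-1)`, `a = x 0 2 1`,
`b = x 2 0 (-1)`, `x = x 0 1 1`, `y = x 1 2 1`; `pure`: `s = diag(-1,-1,1)`, conjugate by signed permutation matrices;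
`t1`: `t x t = x⁻¹ ≠ x` or `mem_center_iff`; `re`: conjugate by `diag(-1,-1,1)`.
`gen`: `H ∋ x 0 2 c` (conjugate `a` by `diag(c, c⁻¹, 1)`), `x 2 0 c` (conjugate further by `w = a b a`, which commutes
with `t`), `x 2 1 c = [x 2 0 c, x 0 1 1]`, `x 1 0 c = [x 1 2 1, x 2 0 c]`, `x 0 1 c = [x 0 2 c, x 2 1 1]`,
`x 1 2 c = [x 1 0 1, x 0 2 c]`; `eq_top_of_transvection_mem` for `H.comap π`.
`kz`: second alternative with `u = x 1 0 1`, `v = x 2 1 1`.  For distinct `i j k`:
`x i j 1 * x j k 1 = x i k 1 * x j k 1 * x i j 1`, `x k j 1` conjugates `x i k 1` to `x i k 1 * x i j (±1)`, `x j i 1`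
conjugates it to `x i k 1 * x j k (±1)` (use the inverse for the other sign), and all `x i j 1` are conjugate (signed
permutation matrices). -/
theorem loc_psl {E : Type*} [Field E] (l : ℕ) [Fact l.Prime] [CharP E l] (h2 : l ≠ 2) :
    ∃ t a b x y : PSL(3, E), Loc l t a b x y := by
  let π : SL(3, E) →* PSL(3, E) := QuotientGroup.mk' _
  let φ := π.comp (ψ E)
  have m : ∀ {p q : SL(3, ℤ)}, p = q → φ p = φ q := congrArg φ
  have t1 : φ t ≠ 1 := fun e => by
    obtain ⟨r, -, hr⟩ := Matrix.SpecialLinearGroup.mem_center_iff.1 ((QuotientGroup.eq_one_iff _).1 e)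
    have e0 : r = -1 := by simpa [t, z] using (congrFun (congrFun hr 0) 0).trans (ψ_ap t 0 0)
    have e1 : r = 1 := by simpa [t, z] using (congrFun (congrFun hr 1) 1).trans (ψ_ap t 1 1)
    have : ((2 : ℕ) : E) = 0 := by push_cast; linear_combination e0 - e1
    exact h2 ((Nat.prime_dvd_prime_iff_eq Fact.out Nat.prime_two).1 ((CharP.cast_eq_zero_iff E l 2).1 this))
  have t2 : φ t * φ t = 1 := by simpa using m (show t * t = 1 by decide +kernel)
  have c2 : IsConj (φ t) (φ s * φ t) := map_mul φ s t ▸ φ.map_isConj (cj (z !![0, 1, 0; 0, 0, 1; 1, 0, 0]))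
  have pw : ∀ {p : SL(3, ℤ)} {i j : Fin 3} {n : i ≠ j}, ψ E p = .transvection n 1 → φ p ^ l = 1 := fun {p i j n} e => by
    change π (ψ E p) ^ l = 1
    rw [← map_pow, e, tv_pow, CharP.cast_eq_zero, Matrix.SpecialLinearGroup.transvection_coeff_zero, map_one]
  have b1 : (φ b)⁻¹ = φ b' := by rw [← map_inv, inv_eq_of_mul_eq_one_right (show b * b' = 1 by decide +kernel)]
  have a1 : (φ a)⁻¹ = φ a' := by rw [← map_inv, inv_eq_of_mul_eq_one_right (show a * a' = 1 by decide +kernel)]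
  refine ⟨φ t, φ a, φ b, φ x, φ y, t2, t1, ⟨φ s, by simpa using m (show s * t = t * s by decide +kernel), fun e => t1 ?_,
    φ.map_isConj (cj (z !![0, 0, 1; 1, 0, 0; 0, 1, 0])), c2⟩, pw ψa, by simpa using m (show t * a = a * t by decide +kernel),
    by simpa using m (show a * b * a = b * a * b by decide +kernel),
    by simpa using m (show a * b * a * (a * b * a) = t by decide +kernel),
    by simpa using m (show x * a = a * x by decide +kernel), by simpa using m (show y * a = a * y by decide +kernel), ?_,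
    pw ψx, pw ψy, eq_inv_of_mul_eq_one_left (by simpa using m (show t * x * t * x = 1 by decide +kernel)),
    eq_inv_of_mul_eq_one_left (by simpa using m (show t * y * t * y = 1 by decide +kernel)),
    a1 ▸ φ.map_isConj (cj (z !![1, 0, 0; 0, -1, 0; 0, 0, -1])), fun H hx hy k => ?_,
    .inr (.inl ⟨φ u, φ v, Hz_map φ h1, b1 ▸ Hz_map φ L3.h2, Hz_map φ h3, Hz_map φ h4⟩)⟩
  · rwa [e, t2, isConj_one_left] at c2
  · rw [commutatorElement_def, mul_inv_eq_iff_eq_mul, mul_inv_eq_iff_eq_mul]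
    exact (Hz_map φ h1).e
  · have := gen (H.comap π) hx hy fun g e => by
      have := k (π g) ((map_mul π _ _).symm.trans ((congrArg π e).trans (map_mul π _ _)))
      rwa [← map_inv, show φ a = π (ψ E a) from rfl, ← map_mul, ← map_mul] at this
    exact Subgroup.comap_injective (QuotientGroup.mk'_surjective _) (this.trans (Subgroup.comap_top _).symm)

end Cfsg.Lib.Q5A
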