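import Cfsg.Agent.Lib.Q5A.Def

/-!
# Q5 branch A: linear algebra in `GL₅(K)`
-/

set_option autoImplicit false

namespace Cfsg.Lib.Q5A

open scoped MatrixGroups Matrix commutatorElement
open Cfsg.Geo Cfsg.Lib.Asch Cfsg.Lib.Linear Cfsg.Lib.Q5 Cfsg.Lib.Q4R Module

section Alg

variable {R : Type*} [Ring R] (h2 : ∀ z : R, z + z = 0 → z = 0) {n m t u v w : R}
include h2

set_option linter.unusedSimpArgs false in
/-- The algebra of two quadratic elements satisfying the braid relation. -/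
theorem braid (n2 : n * n = 0) (m2 : m * m = 0) (br : (1 + n) * (1 + m) * (1 + n) = (1 + m) * (1 + n) * (1 + m))
    (w2 : (1 + n) * (1 + m) * (1 + n) * ((1 + n) * (1 + m) * (1 + n)) = t) (t2 : t * t = 1) :
    ∃ k, k = n + n * m * n ∧ k = m + m * n * m ∧ k + k + k = 0 ∧ n * (1 + t) = k + k ∧
      (1 + n) * (1 + m) * (1 + n) * (1 + t) = 1 + t := by
  obtain ⟨k, e1⟩ : ∃ k, k = n + n * m * n := ⟨_, rfl⟩
  have e2 : k = m + m * n * m := by linear_combination (norm := noncomm_ring) e1 + br - n2 + m2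
  have nk : n * k = 0 := by linear_combination (norm := noncomm_ring) n * e1 + n2 + n2 * m * n
  have kn : k * n = 0 := by linear_combination (norm := noncomm_ring) e1 * n + n2 + n * m * n2
  have mk : m * k = 0 := by linear_combination (norm := noncomm_ring) m * e2 + m2 + m2 * n * m
  have km : k * m = 0 := by linear_combination (norm := noncomm_ring) e2 * m + m2 + m * n * m2
  have kk : k * k = 0 := by linear_combination (norm := noncomm_ring) k * e1 + kn + kn * m * n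
  have a1 : n * (m * n) = k - n := by rw [e1]; noncomm_ring
  have a2 : m * (n * m) = k - m := by rw [e2]; noncomm_ring
  have s : ∀ {a b : R}, a * b = 0 → ∀ z, a * (b * z) = 0 := fun h z => by rw [← mul_assoc, h, zero_mul]
  have hw : (1 + n) * (1 + m) * (1 + n) = 1 + n + m + n * m + m * n + k := by
    linear_combination (norm := noncomm_ring) n2 - e1
  rw [hw] at w2 ⊢
  have ht : t = 1 + (n * m + m * n + (n * m + m * n)) + (k + k + k + (k + k + k)) := by
    rw [← w2]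
    simp only [mul_add, add_mul, mul_sub, mul_assoc, mul_one, one_mul, n2, m2, nk, kn, mk, km, kk, a1, a2, s n2, s m2,
      s kn, s km, mul_zero]
    abel
  have k3 : k + k + k = 0 := h2 _ (h2 _ (by
    rw [ht] at t2
    simp only [mul_add, add_mul, mul_sub, mul_assoc, mul_one, one_mul, n2, m2, nk, kn, mk, km, kk, a1, a2, s n2,
      s m2, s kn, s km, mul_zero] at t2
    linear_combination (norm := abel) t2))
  rw [k3] at ht
  refine ⟨k, e1, e2, k3, ?_, ?_⟩
  · rw [ht]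
    simp only [mul_add, add_mul, mul_sub, mul_assoc, mul_one, one_mul, n2, m2, nk, kn, mk, km, kk, a1, a2, s n2,
      s m2, s kn, s km, mul_zero]
    abel
  · rw [ht]
    simp only [mul_add, add_mul, mul_sub, mul_assoc, mul_one, one_mul, n2, m2, nk, kn, mk, km, kk, a1, a2, s n2,
      s m2, s kn, s km, mul_zero]
    linear_combination (norm := abel) k3 + k3

theorem hz_alg (e : (1 + u) * (1 + v) = (1 + w) * (1 + v) * (1 + u)) (wu : w * u = u * w) (wv : w * v = v * w)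
    (u2 : u * u = 0) (v2 : v * v = 0) (w2 : w * w = 0)
    (c4 : ((1 + w) * (1 + u) - 1) * ((1 + w) * (1 + u) - 1) = 0)
    (c5 : ((1 + w) * (1 + v) - 1) * ((1 + w) * (1 + v) - 1) = 0) :
    w * u = 0 ∧ u * w = 0 ∧ w * v = 0 ∧ v * w = 0 ∧ w = u * v - v * u := by
  have k : ∀ {u : R}, w * u = u * w → u * u = 0 → ((1 + w) * (1 + u) - 1) * ((1 + w) * (1 + u) - 1) = 0 →
      w * u = 0 := fun {u} c u2 q => h2 _ (by
    linear_combination (norm := noncomm_ring) q - u2 - w2 + c - w2 * u - w * u2 + c * u - w * u2 + w * c - w2 * u +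
      w * c * u - w2 * u * u)
  have a := k wu u2 c4
  have b := k wv v2 c5
  exact ⟨a, wu ▸ a, b, wv ▸ b, by linear_combination (norm := noncomm_ring) -e - a - b - b * u⟩

end Alg

variable {K : Type*} [Field K] {x y u s t : G5 K}

/-- A real central commutator of odd prime order `l ≠ char K`: a non-trivial eigenvalue and its inverse have
multiplicity divisible by `l`. -/
theorem heis_real [IsAlgClosed K] {l : ℕ} (hl : l.Prime) (h2 : l ≠ 2) (hK : (l : K) ≠ 0) (h1 : u ^ l = 1) (h0 : u ≠ 1)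
    (cx : x * u = u * x) (cy : y * u = u * y) (e : ⁅x, y⁆ = u) (r : IsConj u u⁻¹) : False := by
  classical
  haveI := Fact.mk hl
  obtain ⟨k, χ, w⟩ := T2a.wt_zp hK h1
  set a : Subgroup.zpowers u := ⟨u, Subgroup.mem_zpowers u⟩
  have m : ∀ {x : G5 K}, x * u = u * x → x ∈ Subgroup.centralizer (Subgroup.zpowers u : Set (G5 K)) := by
    rintro x c _ ⟨i, rfl⟩
    exact (Commute.zpow_right c i).symm
  obtain ⟨i, hi⟩ := not_forall.1 (mt (w.eq_one (a := a)) fun r => h0 (congrArg Subtype.val r))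
  have o : orderOf (χ i a) = l :=
    orderOf_eq_prime (by rw [← map_pow, show a ^ l = 1 from Subtype.ext h1, map_one]) hi
  obtain ⟨β, hβ⟩ := w.block (χ i)
  have d : (β ⁅(⟨x, m cx⟩ : Subgroup.centralizer _), ⟨y, m cy⟩⁆).1.det = 1 := by
    change ((Matrix.GeneralLinearGroup.det (β _) : Kˣ) : K) = 1
    rw [map_commutatorElement, map_commutatorElement, commutatorElement_eq_one_iff_mul_comm.2 (mul_comm _ _),
      Units.val_one]
  have v : (β ⁅(⟨x, m cx⟩ : Subgroup.centralizer _), ⟨y, m cy⟩⁆).1 = ((χ i a : Kˣ) : K) • 1 := by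
    ext j l
    rw [hβ]
    change (k * ⁅x, y⁆ * k⁻¹).1 j l = _
    rw [e, show k * u * k⁻¹ = _ from w a, dg_val, Matrix.diagonal_apply, Matrix.smul_apply, Matrix.one_apply]
    by_cases r : j = l
    · simp [r, l.2]
    · simp [r, Subtype.coe_inj]
  rw [v, Matrix.det_smul, Matrix.det_one, mul_one, Fintype.card_subtype] at d
  set S := Finset.univ.filter fun j => χ j = χ i
  have d1 : l ≤ S.card := Nat.le_of_dvd (Finset.card_pos.2 ⟨i, by simp [S]⟩)
    (o ▸ orderOf_dvd_of_pow_eq_one (Units.ext (by simpa using d)))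
  obtain ⟨g, hg⟩ := isConj_iff.1 r
  obtain ⟨σ, -, hσ⟩ := w.perm g
  have dj : Disjoint S (S.map σ.toEmbedding) := Finset.disjoint_left.2 fun j hj hj' => by
    obtain ⟨j', h', rfl⟩ := Finset.mem_map.1 hj'
    have := hσ a a⁻¹ hg j'
    rw [show χ (σ j') = χ i by simpa [S] using hj, show χ j' = χ i by simpa [S] using h', map_inv] at this
    have := orderOf_dvd_of_pow_eq_one ((sq _).trans (mul_eq_one_iff_eq_inv.2 this.symm))
    exact h2 ((Nat.prime_dvd_prime_iff_eq hl Nat.prime_two).1 (o ▸ this))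
  have := Finset.card_le_univ (S.disjUnion _ dj)
  rw [Finset.card_disjUnion, Finset.card_map, Fintype.card_fin] at this
  have := hl.two_le
  omega

/-- A real element of `SL₅` has the eigenvalue `1`. -/
theorem rank_real' [NeZero (2 : K)] (hd : x.1.det = 1) (r : IsConj x x⁻¹) : (x.1 - 1).rank ≤ 4 := by
  obtain ⟨g, hg⟩ := isConj_iff.1 r
  refine T3.rank_le_four ?_
  have e : g.1 * (x.1 - 1) * (g⁻¹).1 * x.1 = -(x.1 - 1) := by
    rw [mul_sub, sub_mul, ← Units.val_mul, ← Units.val_mul, hg, mul_one, Units.mul_inv, sub_mul, Units.inv_mul,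
      one_mul, neg_sub]
  have := congrArg Matrix.det e
  rw [Matrix.det_mul, Matrix.det_units_conj, hd, Matrix.det_neg, Fintype.card_fin] at this
  exact (mul_eq_zero.1 (by linear_combination this : (2 : K) * _ = 0)).resolve_left (NeZero.ne 2)

/-- The centraliser of a four-group of type `A` has a common eigenvector on which `s = -1`. -/
theorem no_four [IsAlgClosed K] [NeZero (2 : K)] (hs : TA s) (ht : TA t) (hst : TA (s * t)) (c : s * t = t * s)
    (xs : x * s = s * x) (xt : x * t = t * x) (ys : y * s = s * y) (yt : y * t = t * y) (e : ⁅x, y⁆ = s) : False := by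
  obtain ⟨k, ks, kt⟩ := frame_of_ta hs ht hst c
  have z : ∀ {x : G5 K}, x * s = s * x → x * t = t * x → ∀ y : G5 K,
      (k * (x * y) * k⁻¹).1 0 0 = (k * x * k⁻¹).1 0 0 * (k * y * k⁻¹).1 0 0 := fun {x} c1 c2 y => by
    have a : k * x * k⁻¹ * (rr 0 * rr 1) = rr 0 * rr 1 * (k * x * k⁻¹) := by rw [← ks, conj_mul, c1, conj_mul]
    have b : k * x * k⁻¹ * (rr 1 * rr 2) = rr 1 * rr 2 * (k * x * k⁻¹) := by rw [← kt, conj_mul, c2, conj_mul]
    rw [← conj_mul]
    generalize k * x * k⁻¹ = X at a b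
    simp only [rr, ← map_mul] at a b
    have a := fun j => congrArg (fun g : G5 K => g.1 0 j) a
    have b := congrArg (fun g : G5 K => g.1 0 1) b
    simp only [Units.val_mul, dg_val, Matrix.mul_diagonal, Matrix.diagonal_mul] at a b
    have n : ∀ z : K, z = -z → z = 0 := fun z q =>
      (mul_eq_zero.1 (by linear_combination q : (2 : K) * z = 0)).resolve_left (NeZero.ne 2)
    rw [Units.val_mul, Matrix.mul_apply, Fin.sum_univ_five, n (X.1 0 1) (by simpa using b.symm),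
      n (X.1 0 2) (by simpa using a 2), n (X.1 0 3) (by simpa using a 3), n (X.1 0 4) (by simpa using a 4)]
    ring
  have q : ∀ {x : G5 K}, x * s = s * x → x * t = t * x → (k * x * k⁻¹).1 0 0 ≠ 0 := fun {x} c1 c2 r => by
    have := z c1 c2 x⁻¹
    rw [r] at this
    simp at this
  have e1 := z xs xt y
  rw [show x * y = s * (y * x) by rw [← e, commutatorElement_def]; group, z rfl c, z ys yt, ks] at e1
  have : (rr 0 * rr 1 : G5 K).1 0 0 = -1 := by
    rw [rr, rr, ← map_mul, dg_val]; simp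
  rw [this] at e1
  exact mul_ne_zero (NeZero.ne (2 : K)) (mul_ne_zero (q xs xt) (q ys yt)) (by linear_combination -e1)

/-- The nilpotent matrix with Jordan blocks of size three and two. -/
def J5 (K : Type*) [Field K] : Matrix (Fin 5) (Fin 5) K :=
  !![0, 0, 0, 0, 0; 0, 0, 0, 0, 0; 1, 0, 0, 0, 0; 0, 1, 0, 0, 0; 0, 0, 1, 0, 0]

theorem J5_mul (X : Matrix (Fin 5) (Fin 5) K) (j : Fin 5) : (J5 K * X) 0 j = 0 ∧ (J5 K * X) 1 j = 0 ∧
    (J5 K * X) 2 j = X 0 j ∧ (J5 K * X) 3 j = X 1 j ∧ (J5 K * X) 4 j = X 2 j := by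
  simp only [Matrix.mul_apply, Fin.sum_univ_five]
  simp [J5]

theorem mul_J5 (X : Matrix (Fin 5) (Fin 5) K) (i : Fin 5) : (X * J5 K) i 0 = X i 2 ∧ (X * J5 K) i 1 = X i 3 ∧
    (X * J5 K) i 2 = X i 4 ∧ (X * J5 K) i 3 = 0 ∧ (X * J5 K) i 4 = 0 := by
  simp only [Matrix.mul_apply, Fin.sum_univ_five]
  simp [J5]

theorem J5_row {X : Matrix (Fin 5) (Fin 5) K} (h : X * J5 K = J5 K * X) : X 0 1 = 0 ∧ X 0 2 = 0 ∧ X 0 3 = 0 ∧
    X 0 4 = 0 ∧ X 1 2 = 0 ∧ X 1 3 = 0 ∧ X 1 4 = 0 ∧ X 2 2 = X 0 0 ∧ X 2 3 = 0 ∧ X 2 4 = 0 ∧ X 3 2 = X 1 0 ∧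
    X 3 3 = X 1 1 ∧ X 3 4 = 0 := by
  have k := fun i j => congrFun (congrFun h i) j
  have a1 := k 0 0
  have a2 := k 0 1
  have a3 := k 0 2
  have a4 := k 1 0
  have a5 := k 1 1
  have a6 := k 1 2
  have a7 := k 2 0
  have a8 := k 2 1
  have a9 := k 2 2
  have b1 := k 3 0
  have b2 := k 3 1
  have b3 := k 3 2
  have b4 := k 4 3
  simp only [J5_mul, mul_J5] at a1 a2 a3 a4 a5 a6 a7 a8 a9 b1 b2 b3 b4
  exact ⟨a8 ▸ b4.symm, a1, a2, a3, a4, a5, a6, a7, b4.symm, a9.trans a1, b1, b2, b3.trans a4⟩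

theorem J5_tr {X Y : Matrix (Fin 5) (Fin 5) K} (hX : X * J5 K = J5 K * X) (hY : Y * J5 K = J5 K * Y)
    (e : X * Y = (1 + J5 K) * (Y * X)) : X 0 0 * Y 0 0 + X 1 1 * Y 1 1 = 0 := by
  obtain ⟨a1, a2, a3, a4, a5, a6, a7, a8, a9, a10, a11, a12, a13⟩ := J5_row hX
  obtain ⟨b1, b2, b3, b4, b5, b6, b7, b8, b9, b10, b11, b12, b13⟩ := J5_row hY
  have c1 := congrFun (congrFun e 2) 0
  have c2 := congrFun (congrFun e 3) 1
  simp only [add_mul, one_mul, Matrix.add_apply, J5_mul] at c1 c2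
  simp [Matrix.mul_apply, Fin.sum_univ_five, *] at c1 c2
  linear_combination -c1 - c2

theorem no_J5 [NeZero (2 : K)] (hx : x.1 * J5 K = J5 K * x.1) (hy : y.1 * J5 K = J5 K * y.1)
    (e : x.1 * y.1 = (1 + J5 K) * (y.1 * x.1)) : False := by
  have m : ∀ {X : Matrix (Fin 5) (Fin 5) K} (Y), X * J5 K = J5 K * X → Y * J5 K = J5 K * Y →
      (X * Y) 0 0 = X 0 0 * Y 0 0 ∧ (X * Y) 1 1 = X 1 1 * Y 1 1 := fun {X} Y h h' => by
    obtain ⟨a1, a2, a3, a4, a5, a6, a7, -⟩ := J5_row h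
    simp [Matrix.mul_apply, Fin.sum_univ_five, (J5_row h').1, *]
  have n : ∀ {x : G5 K}, x.1 * J5 K = J5 K * x.1 → x.1 0 0 ≠ 0 := fun {x} h r => by
    have := (m (x⁻¹).1 h (Commute.units_inv_left h)).1
    rw [r] at this
    simp at this
  have e0 := J5_tr hx hy e
  have e1 := J5_tr hx (Commute.mul_left hy hx) (by rw [← mul_assoc, e]; simp only [mul_assoc])
  have e2 := J5_tr (Commute.mul_left hx hy) hy ((congrArg (· * y.1) e).trans (by simp only [mul_assoc]))
  rw [(m _ hy hx).1, (m _ hy hx).2] at e1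
  rw [(m _ hx hy).1, (m _ hx hy).2] at e2
  have q := mul_ne_zero (n hx) (n hy)
  have f1 : x.1 0 0 = x.1 1 1 := mul_left_cancel₀ q (by linear_combination e1 - x.1 1 1 * e0)
  have f2 : y.1 0 0 = y.1 1 1 := mul_left_cancel₀ q (by linear_combination e2 - y.1 1 1 * e0)
  rw [← f1, ← f2] at e0
  exact mul_ne_zero (NeZero.ne (2 : K)) q (by linear_combination e0)

theorem ex_J5 [NeZero (2 : K)] {N T : Matrix (Fin 5) (Fin 5) K} (c : T * N = N * T) {v w : Fin 5 → K}
    (tv : T *ᵥ v = v) (tw : T *ᵥ w = -w) (v2 : N *ᵥ N *ᵥ v ≠ 0) (v3 : N *ᵥ N *ᵥ N *ᵥ v = 0) (w1 : N *ᵥ w ≠ 0)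
    (w2 : N *ᵥ N *ᵥ w = 0) : ∃ k : G5 K, N * k.1 = k.1 * J5 K := by
  have c' : ∀ u, T *ᵥ N *ᵥ u = N *ᵥ T *ᵥ u := fun u => by rw [Matrix.mulVec_mulVec, c, Matrix.mulVec_mulVec]
  let B : Matrix (Fin 5) (Fin 5) K := (Matrix.of ![v, w, N *ᵥ v, N *ᵥ w, N *ᵥ N *ᵥ v])ᵀ
  have li : LinearIndependent K ![v, w, N *ᵥ v, N *ᵥ w, N *ᵥ N *ᵥ v] := Fintype.linearIndependent_iff.2 fun g hg => by
    rw [Fin.sum_univ_five] at hg
    simp only [Matrix.cons_val] at hg
    have h1 := congrArg (T *ᵥ ·) hg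
    simp only [Matrix.mulVec_add, Matrix.mulVec_smul, c', tv, tw, Matrix.mulVec_neg, Matrix.mulVec_zero] at h1
    have n : ∀ z : Fin 5 → K, (2 : K) • z = 0 → z = 0 := fun z q => (smul_eq_zero.1 q).resolve_left (NeZero.ne 2)
    have p : g 0 • v + g 2 • N *ᵥ v + g 4 • N *ᵥ N *ᵥ v = 0 := n _ (by linear_combination (norm := module) hg + h1)
    have q : g 1 • w + g 3 • N *ᵥ w = 0 := n _ (by linear_combination (norm := module) hg - h1)
    have p1 := congrArg (N *ᵥ ·) p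
    have p2 := congrArg (N *ᵥ ·) p1
    have q1 := congrArg (N *ᵥ ·) q
    simp only [Matrix.mulVec_add, Matrix.mulVec_smul, v3, w2, Matrix.mulVec_zero, smul_zero, add_zero] at p1 p2 q1
    have g0 := (smul_eq_zero.1 p2).resolve_right v2
    have g1 := (smul_eq_zero.1 q1).resolve_right w1
    rw [g0, zero_smul, zero_add] at p p1
    have g2 := (smul_eq_zero.1 p1).resolve_right v2
    rw [g2, zero_smul, zero_add] at p
    rw [g1, zero_smul, zero_add] at q
    intro i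
    fin_cases i
    exacts [g0, g1, g2, (smul_eq_zero.1 q).resolve_right w1, (smul_eq_zero.1 p).resolve_right v2]
  obtain ⟨k, hk⟩ : IsUnit B := Matrix.linearIndependent_cols_iff_isUnit.1 li
  refine ⟨k, ?_⟩
  rw [hk]
  ext i j
  have : (N * B) i j = (N *ᵥ ![v, w, N *ᵥ v, N *ᵥ w, N *ᵥ N *ᵥ v] j) i := rfl
  rw [this]
  fin_cases j <;> simp [B, J5, Matrix.mul_apply, Fin.sum_univ_five, v3, w2, -Matrix.mulVec_mulVec]

theorem nil_sub {N : Matrix (Fin 5) (Fin 5) K} {l d : ℕ} (hN : N ^ l = 0) {U : Submodule K (Fin 5 → K)}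
    (hU : ∀ v ∈ U, N *ᵥ v ∈ U) (hd : finrank K U ≤ d) {v : Fin 5 → K} (hv : v ∈ U) : (N ^ d) *ᵥ v = 0 := by
  let f : End K U := (Matrix.toLinAlgEquiv' N).restrict hU
  have k : ∀ j, ((f ^ j) ⟨v, hv⟩).1 = (N ^ j) *ᵥ v := fun j => by
    induction j with
    | zero => simp
    | succ j ih => rw [pow_succ', End.mul_apply, pow_succ', ← Matrix.mulVec_mulVec, ← ih]; rfl
  have : (⟨v, hv⟩ : U) ∈ LinearMap.ker (f ^ l) := Subtype.ext (by rw [k, hN, Matrix.zero_mulVec]; rfl)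
  rw [← k]
  exact congrArg Subtype.val (LinearMap.mem_ker.1
    (OrderHom.monotone f.iterateKer hd (End.ker_pow_le_ker_pow_finrank f l this)))

theorem le_of_one {U C : Submodule K (Fin 5 → K)} (h : finrank K U ≤ 1) (n : U ⊓ C ≠ ⊥) : U ≤ C :=
  inf_eq_left.1 (Submodule.eq_of_le_of_finrank_le inf_le_left (h.trans (Submodule.one_le_finrank_iff.2 n)))

theorem inf_le_one {U C : Submodule K (Fin 5 → K)} (h : finrank K U ≤ 2) (n : ¬ U ≤ C) : finrank K ↥(U ⊓ C) ≤ 1 := by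
  have := Submodule.finrank_lt_finrank_of_lt (lt_of_le_of_ne inf_le_left fun e => n (inf_eq_left.1 e) : U ⊓ C < U)
  omega

/-- Pairwise intersecting lines pass through a point or lie in a plane. -/
theorem lines {ι : Type*} (W : ι → Submodule K (Fin 5 → K)) (i : ι) (d : ∀ i, finrank K (W i) ≤ 2)
    (h : ∀ i j, W i ⊓ W j ≠ ⊥) (hs : ⨆ i, W i = ⊤) : ⨅ i, W i ≠ ⊥ := by
  have ex : ∀ S : Submodule K (Fin 5 → K), finrank K S ≤ 3 → ∃ j, ¬ W j ≤ S := fun S q => by
    by_contra r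
    rw [top_le_iff.1 (hs ▸ iSup_le fun j => by_contra fun c => r ⟨j, c⟩ : ⊤ ≤ S)] at q
    simp at q
  obtain ⟨j, hj⟩ := ex (W i) ((d i).trans (by decide))
  obtain ⟨m, hm⟩ := ex (W j ⊔ W i) (by
    have := Submodule.finrank_sup_add_finrank_inf_eq (W j) (W i)
    have := Submodule.one_le_finrank_iff.2 (h j i)
    have := d i
    have := d j
    omega)
  have k : ∀ c, ¬ W c ≤ W j ⊔ W i → W j ⊓ W i ≤ W c ∧ W c ⊓ (W j ⊔ W i) ≤ W j ⊓ W i := fun c hc => by
    have q : ∀ {e}, W e ≤ W j ⊔ W i → W c ⊓ (W j ⊔ W i) ≤ W e := fun {e} he =>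
      le_of_one (inf_le_one (d c) hc) (by rw [inf_assoc, inf_eq_right.2 he]; exact h c e)
    have r := le_inf (q le_sup_left) (q le_sup_right)
    refine ⟨le_of_one (inf_le_one (d j) hj) fun z => h c i ?_, r⟩
    rw [eq_bot_iff, ← z]
    exact le_inf ((inf_le_inf_left _ le_sup_right).trans r) inf_le_left
  refine fun z => h j i (eq_bot_iff.2 (z ▸ le_iInf fun c => ?_))
  by_cases hc : W c ≤ W j ⊔ W i
  · refine le_of_one (inf_le_one (d j) hj) fun z => h m c ?_
    rw [eq_bot_iff, ← z]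
    exact le_inf ((inf_le_inf_left _ hc).trans (k m hm).2) inf_le_right
  · exact (k c hc).1

end Cfsg.Lib.Q5A
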