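import Cfsg.Agent.Lib.Q5A.Lin

/-!
# Q5 branch A: `L₃(r)` and `U₃(r)`, `r` odd, have no faithful irreducible representation of degree five
-/

set_option autoImplicit false

namespace Cfsg.Lib.Q5A

open scoped MatrixGroups Matrix commutatorElement
open Cfsg.Geo Cfsg.Lib.Asch Cfsg.Lib.Linear Cfsg.Lib.Q5 Module

variable {K : Type*} [Field K] {X : Type*} [Group X] {ρ : X →* G5 K} {l : ℕ} {t a b x y u v w : X}

/-- The elements fixing the columns of `P`. -/
def Fx (ρ : X →* G5 K) (P : Matrix (Fin 5) (Fin 5) K) : Subgroup X where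
  carrier := {g | (ρ g).1 * P = P}
  one_mem' := by simp
  mul_mem' := fun {g h} hg hh => by
    change (ρ (g * h)).1 * P = P
    rw [map_mul, Units.val_mul, mul_assoc, hh, hg]
  inv_mem' := fun {g} hg => by
    change (ρ g⁻¹).1 * P = P
    rw [map_inv, Units.inv_mul_eq_iff_eq_mul, hg]

theorem Fx.conj {P : Matrix (Fin 5) (Fin 5) K} (c : Commute (ρ u).1 P) (h : v ∈ Fx ρ P) : u * v * u⁻¹ ∈ Fx ρ P := by
  change (ρ _).1 * P = P
  rw [map_mul, map_mul, map_inv, Units.val_mul, Units.val_mul, mul_assoc, c.units_inv_left.eq, ← mul_assoc,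
    mul_assoc _ _ P, h, c.eq, Units.mul_inv_cancel_right]

theorem cm (c : u * v = v * u) : Commute (ρ u).1 (ρ v).1 := by
  rw [commute_iff_eq, ← Units.val_mul, ← map_mul, c, map_mul, Units.val_mul]

theorem half [NeZero (2 : K)] (z : Matrix (Fin 5) (Fin 5) K) (h : z + z = 0) : z = 0 :=
  (smul_eq_zero.1 ((two_smul K z).trans h)).resolve_left (NeZero.ne 2)

theorem ex_vec {M : Matrix (Fin 5) (Fin 5) K} (h : M ≠ 0) : ∃ v, M *ᵥ v ≠ 0 := by
  by_contra r
  exact h (Matrix.ext_iff_mulVec.2 fun v => by rw [Matrix.zero_mulVec]; exact by_contra fun c => r ⟨v, c⟩)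

theorem mem_k {M N : Matrix (Fin 5) (Fin 5) K} (h : M * N = 0) (v : Fin 5 → K) :
    N *ᵥ v ∈ LinearMap.ker M.mulVecLin := by
  rw [LinearMap.mem_ker, Matrix.mulVecLin_apply, Matrix.mulVec_mulVec, h, Matrix.zero_mulVec]

theorem mem_c {M N : Matrix (Fin 5) (Fin 5) K} (h : M * N = N * M) (v : Fin 5 → K)
    (hv : v ∈ LinearMap.ker M.mulVecLin) : N *ᵥ v ∈ LinearMap.ker M.mulVecLin := by
  rw [LinearMap.mem_ker, Matrix.mulVecLin_apply] at hv ⊢
  rw [Matrix.mulVec_mulVec, h, ← Matrix.mulVec_mulVec, hv, Matrix.mulVec_zero]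

theorem ker_neg [NeZero (2 : K)] {T : Matrix (Fin 5) (Fin 5) K} (h : (T - 1).rank = 2) :
    finrank K (LinearMap.ker (1 + T).mulVecLin) ≤ 2 := by
  rw [← h]
  refine Submodule.finrank_mono fun v hv => ⟨(-2 : K)⁻¹ • v, ?_⟩
  have : v + T *ᵥ v = 0 := by simpa [Matrix.add_mulVec] using hv
  rw [map_smul, Matrix.mulVecLin_apply, Matrix.sub_mulVec, Matrix.one_mulVec,
    show T *ᵥ v - v = (-2 : K) • v by linear_combination (norm := module) this,
    inv_smul_smul₀ (neg_ne_zero.2 (NeZero.ne 2))]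

/-- The image of `u - 1`. -/
def Rg (ρ : X →* G5 K) (u : X) : Submodule K (Fin 5 → K) := LinearMap.range ((ρ u).1 - 1).mulVecLin

theorem Rg.conj {z : Fin 5 → K} (h : z ∈ Rg ρ u) (g : X) : (ρ g).1 *ᵥ z ∈ Rg ρ (g * u * g⁻¹) := by
  obtain ⟨z, rfl⟩ := h
  refine ⟨(ρ g).1 *ᵥ z, ?_⟩
  simp only [Matrix.mulVecLin_apply, Matrix.mulVec_mulVec, map_mul, map_inv, Units.val_mul, sub_mul, mul_sub,
    Units.inv_mul_cancel_right, one_mul, mul_one]

theorem Rg.inv {z : Fin 5 → K} (h : z ∈ Rg ρ u) : z ∈ Rg ρ u⁻¹ := by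
  obtain ⟨z, rfl⟩ := h
  refine ⟨(-(ρ u).1) *ᵥ z, ?_⟩
  simp only [Matrix.mulVecLin_apply, Matrix.mulVec_mulVec, map_inv, sub_mul, mul_neg, Units.inv_mul, one_mul,
    neg_sub]

theorem Hz.alg [NeZero (2 : K)] (H : Hz a u v w) (q : ∀ u, IsConj a u → ((ρ u).1 - 1) * ((ρ u).1 - 1) = 0) :
    ((ρ w).1 - 1) * ((ρ u).1 - 1) = 0 ∧ ((ρ u).1 - 1) * ((ρ w).1 - 1) = 0 ∧ ((ρ w).1 - 1) * ((ρ v).1 - 1) = 0 ∧
      ((ρ v).1 - 1) * ((ρ w).1 - 1) = 0 ∧
      (ρ w).1 - 1 = ((ρ u).1 - 1) * ((ρ v).1 - 1) - ((ρ v).1 - 1) * ((ρ u).1 - 1) := by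
  refine hz_alg half ?_ (((cm H.wu).sub_left (.one_left _)).sub_right (.one_right _))
    (((cm H.wv).sub_left (.one_left _)).sub_right (.one_right _)) (q u H.c1) (q v H.c2) (q w H.c3) ?_ ?_
  · simp only [add_sub_cancel, ← Units.val_mul, ← map_mul, H.e]
  · simpa only [add_sub_cancel, ← Units.val_mul, ← map_mul] using q _ H.c4
  · simpa only [add_sub_cancel, ← Units.val_mul, ← map_mul] using q _ H.c5

namespace Loc

variable (L : Loc l t a b x y)
include L

theorem wab : a * b * a * a * (a * b * a)⁻¹ = b := by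
  rw [mul_inv_eq_iff_eq_mul]
  exact (congrArg (· * a) L.br).trans (by simp only [mul_assoc])

theorem wt : a * b * a * t = t * (a * b * a) := by rw [← L.w2, mul_assoc (a * b * a)]

theorem a1 : a ≠ 1 := fun e => L.t1 (by
  have := L.wab
  rw [← L.w2, ← this, e]
  simp)

theorem xy' : x * y = a * (y * x) := by rw [← L.xy, commutatorElement_def]; group

variable [NeZero (2 : K)] (T : TA (ρ t))
include T

theorem cp (c : u * t = t * u) : Commute (ρ u).1 (1 + (ρ t).1) := (Commute.one_right _).add_right (cm c)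

theorem tt : (ρ t).1 * (ρ t).1 = 1 := congrArg Units.val T.1

/-- `a` is quadratic. -/
theorem quad [Fact l.Prime] [CharP K l] : ((ρ a).1 - 1) * ((ρ a).1 - 1) = 0 := by
  by_contra r
  have tt := L.tt T
  have hl : ((ρ a).1 - 1) ^ l = 0 := by
    rw [sub_pow_char_of_commute l (Commute.one_right _), ← Units.val_pow_eq_pow_val, ← map_pow, L.al, map_one,
      Units.val_one, one_pow, sub_self]
  have c : (ρ t).1 * ((ρ a).1 - 1) = ((ρ a).1 - 1) * (ρ t).1 := (cm L.ta).sub_right (.one_right _)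
  have n1 : ((ρ a).1 - 1) * (1 - (ρ t).1) ≠ 0 := fun z => by
    have ha : a ∈ Fx ρ (1 - (ρ t).1) := by
      change _ * _ = _
      rwa [sub_mul, one_mul, sub_eq_zero] at z
    have hb : b ∈ Fx ρ (1 - (ρ t).1) := L.wab ▸ Fx.conj ((Commute.one_right _).sub_right (cm L.wt)) ha
    have hw := mul_mem (mul_mem ha hb) ha
    have ht := mul_mem hw hw
    rw [L.w2] at ht
    replace ht : (ρ t).1 * (1 - (ρ t).1) = _ := ht
    have := T.2
    rw [half ((ρ t).1 - 1) (by linear_combination (norm := noncomm_ring) ht + tt), Matrix.rank_zero] at this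
    omega
  have hx : Commute (ρ x).1 ((ρ a).1 - 1) := (cm L.xa).sub_right (.one_right _)
  have hy : Commute (ρ y).1 ((ρ a).1 - 1) := (cm L.ya).sub_right (.one_right _)
  have e : (ρ x).1 * (ρ y).1 = (1 + ((ρ a).1 - 1)) * ((ρ y).1 * (ρ x).1) := by
    simp only [add_sub_cancel, ← Units.val_mul, ← map_mul, L.xy']
  generalize (ρ a).1 - 1 = N at *
  have d2 := ker_neg T.2
  have d3 := T3.rank_add_ker ((ρ t).1 - 1)
  rw [T.2] at d3
  generalize (ρ t).1 = T at *
  have m2 : ∀ v, N *ᵥ N *ᵥ (1 - T) *ᵥ v = 0 := fun v => by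
    rw [Matrix.mulVec_mulVec, ← sq]
    exact nil_sub hl (mem_c (by linear_combination (norm := noncomm_ring) c)) d2
      (mem_k (by linear_combination (norm := noncomm_ring) -tt) v)
  have m3 : ∀ v, N *ᵥ N *ᵥ N *ᵥ (1 + T) *ᵥ v = 0 := fun v => by
    rw [Matrix.mulVec_mulVec, Matrix.mulVec_mulVec, ← pow_three']
    exact nil_sub hl (mem_c (M := T - 1) (by linear_combination (norm := noncomm_ring) c)) (by omega)
      (mem_k (by linear_combination (norm := noncomm_ring) tt) v)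
  have n2 : N * (N * (1 + T)) ≠ 0 := fun z => r (half _ (by
    have : N * (N * (1 - T)) = 0 := Matrix.ext_iff_mulVec.2 fun v => by
      rw [← Matrix.mulVec_mulVec, ← Matrix.mulVec_mulVec, m2, Matrix.zero_mulVec]
    linear_combination (norm := noncomm_ring) z + this))
  obtain ⟨v, hv⟩ := ex_vec n2
  obtain ⟨w, hw⟩ := ex_vec n1
  simp only [← Matrix.mulVec_mulVec] at hv hw
  obtain ⟨k, hk⟩ := ex_J5 c (by
      rw [Matrix.mulVec_mulVec, show T * (1 + T) = 1 + T by linear_combination (norm := noncomm_ring) tt])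
    (by rw [Matrix.mulVec_mulVec, ← Matrix.neg_mulVec,
      show T * (1 - T) = -(1 - T) by linear_combination (norm := noncomm_ring) -tt]) hv (m3 v) hw (m2 w)
  have j : J5 K = (k⁻¹).1 * N * k.1 := by rw [mul_assoc, hk, Units.inv_mul_cancel_left]
  have cj : ∀ {g : G5 K}, Commute g.1 N → (k⁻¹ * g * k).1 * J5 K = J5 K * (k⁻¹ * g * k).1 := fun {g} c => by
    simp only [j, Units.val_mul, mul_assoc, Units.mul_inv_cancel_left]
    rw [← mul_assoc g.1, c.eq, mul_assoc]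
  refine no_J5 (cj hx) (cj hy) ?_
  simp only [j, Units.val_mul, mul_assoc, Units.mul_inv_cancel_left, add_mul, one_mul]
  rw [← mul_assoc (ρ x).1, e]
  simp only [mul_assoc, add_mul, mul_add, one_mul]

/-- `a` is trivial on the fixed space of `t`. -/
theorem fx [Fact l.Prime] [CharP K l] (h : Rp ρ) : a ∈ Fx ρ (1 + (ρ t).1) := by
  have q : ∀ u, IsConj a u → ((ρ u).1 - 1) * ((ρ u).1 - 1) = 0 := fun u c => by
    obtain ⟨g, rfl⟩ := isConj_iff.1 c
    have : ∀ g u, (ρ (g * u * g⁻¹)).1 - 1 = (ρ g).1 * ((ρ u).1 - 1) * (ρ g)⁻¹.1 := fun g u => by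
      simp only [map_mul, map_inv, Units.val_mul, sub_mul, mul_sub, mul_one, Units.mul_inv]
    rw [this]
    simp only [mul_assoc, Units.inv_mul_cancel_left]
    rw [← mul_assoc (_ - 1), L.quad T, zero_mul, mul_zero]
  have cb : IsConj a b := isConj_iff.2 ⟨_, L.wab⟩
  obtain ⟨k, e1, e2, k3, e3, e4⟩ := braid half (q a (.refl a)) (q b cb)
    (by simp only [add_sub_cancel, ← Units.val_mul, ← map_mul, L.br])
    (by simp only [add_sub_cancel, ← Units.val_mul, ← map_mul, L.w2]) (L.tt T)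
  have fin : k = 0 → a ∈ Fx ρ (1 + (ρ t).1) := fun z => by
    change _ * _ = _
    rwa [z, add_zero, sub_mul, one_mul, sub_eq_zero] at e3
  rcases L.kz with c | ⟨u, v, H1, H2, H3, H4⟩ | c | c
  · refine fin ((smul_eq_zero.1 (show (3 : K) • k = 0 by linear_combination (norm := module) k3)).resolve_left
      fun z => c ((Nat.prime_dvd_prime_iff_eq Fact.out Nat.prime_three).1 ((CharP.cast_eq_zero_iff K l 3).1 z)))
  · obtain ⟨p1, p2, p3, p4, p5⟩ := H1.alg q
    obtain ⟨-, -, -, -, p6⟩ := H2.alg q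
    obtain ⟨-, -, -, -, p7⟩ := H3.alg q
    obtain ⟨-, -, -, -, p8⟩ := H4.alg q
    have p9 : (ρ b⁻¹).1 - 1 = -((ρ b).1 - 1) := by
      rw [map_inv, ← (ρ b).isUnit.mul_right_inj, mul_sub, Units.mul_inv]
      linear_combination (norm := noncomm_ring) q b cb
    have p0 := q a (.refl a)
    rw [p9] at p6
    generalize (ρ a).1 - 1 = A at *
    generalize (ρ b).1 - 1 = B at *
    generalize (ρ x).1 - 1 = X at *
    generalize (ρ y).1 - 1 = Y at *
    generalize (ρ u).1 - 1 = U at *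
    generalize (ρ v).1 - 1 = V at *
    have s1 : A * V * (U * A) = X * Y := by
      rw [show A * V = X + V * A by rw [p8]; noncomm_ring, show U * A = Y + A * U by rw [p7]; noncomm_ring]
      linear_combination (norm := noncomm_ring) p2 * U + V * p3 + V * p0 * U
    have s2 : A * U * (V * A) = Y * X := by
      rw [show A * U = U * A - Y by rw [p7]; noncomm_ring, show V * A = A * V - X by rw [p8]; noncomm_ring]
      linear_combination (norm := noncomm_ring) U * p0 * V - U * p1 - p4 * V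
    exact fin (by linear_combination (norm := noncomm_ring) e1 - A * p6 * A - s1 + s2 + p5)
  · refine c _ fun g hg => Fx.conj (L.cp T hg) ?_
    change _ * _ = _
    simpa only [add_sub_cancel, ← Units.val_mul, ← map_mul] using e4
  · refine fin (by_contra fun n => ?_)
    obtain ⟨z, hz⟩ := ex_vec n
    have za : k *ᵥ z ∈ Rg ρ a := ⟨(1 + ((ρ b).1 - 1) * ((ρ a).1 - 1)) *ᵥ z, by
      rw [Matrix.mulVecLin_apply, Matrix.mulVec_mulVec, e1, mul_add, mul_one, mul_assoc]⟩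
    have zb : k *ᵥ z ∈ Rg ρ b := ⟨(1 + ((ρ a).1 - 1) * ((ρ b).1 - 1)) *ᵥ z, by
      rw [Matrix.mulVecLin_apply, Matrix.mulVec_mulVec, e2, mul_add, mul_one, mul_assoc]⟩
    generalize k *ᵥ z = z at za zb hz
    have nz : ∀ g {z : Fin 5 → K}, z ≠ 0 → (ρ g).1 *ᵥ z ≠ 0 := fun g z n r =>
      n (Matrix.mulVec_injective_iff_isUnit.2 (ρ g).isUnit (r.trans (Matrix.mulVec_zero _).symm))
    have ex : ∀ g, ∃ z ≠ 0, z ∈ Rg ρ a ∧ z ∈ Rg ρ (g * a * g⁻¹) := fun g => by
      rcases c g with e | e | ⟨u, hu, e⟩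
      · exact ⟨z, hz, za, e.symm ▸ za⟩
      · exact ⟨z, hz, za, e.symm ▸ Rg.inv za⟩
      · refine ⟨_, nz u hz, by simpa only [hu, mul_inv_cancel_right] using Rg.conj za u, ?_⟩
        rcases e with e | e <;> rw [e]
        exacts [Rg.conj zb u, Rg.conj (Rg.inv zb) u]
    have d : ∀ g, finrank K (Rg ρ (g * a * g⁻¹)) ≤ 2 := fun g => by
      have := Matrix.rank_add_rank_le_card_of_mul_eq_zero (q _ (isConj_iff.2 ⟨g, rfl⟩))
      rw [Fintype.card_fin] at this
      change Matrix.rank _ ≤ 2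
      omega
    have iv : ∀ g j {z}, z ∈ Rg ρ (j * a * j⁻¹) → (ρ g).1 *ᵥ z ∈ Rg ρ (g * j * a * (g * j)⁻¹) := fun g j z h => by
      simpa only [mul_assoc, mul_inv_rev] using Rg.conj h g
    refine lines (fun g => Rg ρ (g * a * g⁻¹)) 1 d (fun i j r => ?_) ((h.irr _ ?_).resolve_left fun r => hz ?_)
      ((h.irr _ ?_).resolve_right fun r => ?_)
    · obtain ⟨z, n, h1, h2⟩ := ex (i⁻¹ * j)
      refine nz i n ((Submodule.eq_bot_iff _).1 r _ (Submodule.mem_inf.2 ⟨Rg.conj h1 i, ?_⟩))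
      simpa only [mul_inv_cancel_left] using iv i _ h2
    · rintro _ ⟨g, rfl⟩ z hz
      induction hz using Submodule.iSup_induction' with
      | mem j z hz => exact Submodule.mem_iSup_of_mem _ (iv g j hz)
      | zero => simp
      | add u v _ _ hu hv => rw [Matrix.mulVec_add]; exact add_mem hu hv
    · exact (Submodule.eq_bot_iff _).1 r _ (Submodule.mem_iSup_of_mem 1 (by simpa using za))
    · rintro _ ⟨g, rfl⟩ z hz
      refine (Submodule.mem_iInf _).2 fun j => ?_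
      simpa only [mul_inv_cancel_left] using iv g _ ((Submodule.mem_iInf _).1 hz (g⁻¹ * j))
    · have := (Submodule.finrank_mono (iInf_le (fun g => Rg ρ (g * a * g⁻¹)) 1)).trans (d 1)
      rw [r] at this
      simp at this

/-- `x` and `y` fix a common vector of the fixed space of `t`. -/
theorem same [Fact l.Prime] [CharP K l] (h2 : l ≠ 2) (h : Rp ρ) : False := by
  have tt := L.tt T
  have f : (ρ a).1 * _ = _ := L.fx T h
  have d : finrank K ↥(LinearMap.ker (1 + (ρ t).1).mulVecLin ⊓ LinearMap.ker ((ρ a).1 - 1).mulVecLin) ≤ 1 :=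
    inf_le_one (ker_neg T.2) fun r => L.a1 (h.inj (Units.ext (sub_eq_zero.1 (half _ (by
      have : ((ρ a).1 - 1) * (1 - (ρ t).1) = 0 := Matrix.ext_iff_mulVec.2 fun v => by
        rw [← Matrix.mulVec_mulVec, Matrix.zero_mulVec]
        exact r (mem_k (by linear_combination (norm := noncomm_ring) -tt) v)
      rw [map_one, Units.val_one]
      linear_combination (norm := noncomm_ring) this + f)))))
  have k : ∀ {x}, x * a = a * x → t * x * t = x⁻¹ →
      4 ≤ finrank K (LinearMap.ker (((ρ x).1 - (ρ x⁻¹).1) * (1 + (ρ t).1)).mulVecLin) := fun {x} c e => by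
    have e1 : (ρ t).1 * (ρ x).1 = (ρ x⁻¹).1 * (ρ t).1 := by
      simp only [← Units.val_mul, ← map_mul, ← e, mul_assoc, L.t2, mul_one]
    have e2 : (ρ t).1 * (ρ x⁻¹).1 = (ρ x).1 * (ρ t).1 := by
      simp only [← Units.val_mul, ← map_mul, ← e, ← mul_assoc, L.t2, one_mul]
    have c1 := (cm (ρ := ρ) c).eq
    have c2 := (cm (ρ := ρ) (Commute.inv_left c)).eq
    have := T3.rank_add_ker (((ρ x).1 - (ρ x⁻¹).1) * (1 + (ρ t).1))
    have : (((ρ x).1 - (ρ x⁻¹).1) * (1 + (ρ t).1)).rank ≤ 1 := by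
      refine (Submodule.finrank_mono ?_).trans d
      rintro _ ⟨v, rfl⟩
      refine ⟨mem_k ?_ v, mem_k ?_ v⟩
      · linear_combination (norm := noncomm_ring) (e1 - e2) * (1 + (ρ t).1) - ((ρ x).1 - (ρ x⁻¹).1) * tt
      · linear_combination (norm := noncomm_ring) (c2 - c1) * (1 + (ρ t).1) + ((ρ x).1 - (ρ x⁻¹).1) * f
    omega
  have k1 := k L.xa L.tx
  have k2 := k L.ya L.ty
  obtain ⟨v, ⟨hx, hy⟩, n⟩ : ∃ v ∈ LinearMap.ker (((ρ x).1 - (ρ x⁻¹).1) * (1 + (ρ t).1)).mulVecLin ⊓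
      LinearMap.ker (((ρ y).1 - (ρ y⁻¹).1) * (1 + (ρ t).1)).mulVecLin, v ∉ LinearMap.ker (1 + (ρ t).1).mulVecLin :=
    SetLike.not_le_iff_exists.1 fun r => by
      have := (Submodule.finrank_mono r).trans (ker_neg T.2)
      have s := Submodule.finrank_sup_add_finrank_inf_eq
        (LinearMap.ker (((ρ x).1 - (ρ x⁻¹).1) * (1 + (ρ t).1)).mulVecLin)
        (LinearMap.ker (((ρ y).1 - (ρ y⁻¹).1) * (1 + (ρ t).1)).mulVecLin)
      have := Submodule.finrank_le (LinearMap.ker (((ρ x).1 - (ρ x⁻¹).1) * (1 + (ρ t).1)).mulVecLin ⊔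
        LinearMap.ker (((ρ y).1 - (ρ y⁻¹).1) * (1 + (ρ t).1)).mulVecLin)
      rw [finrank_fin_fun] at this
      omega
  let H : Subgroup X := (MulAction.stabilizer (G5 K) ((1 + (ρ t).1) *ᵥ v)).comap ρ
  have mH : ∀ {g}, g ∈ H ↔ (ρ g).1 *ᵥ (1 + (ρ t).1) *ᵥ v = (1 + (ρ t).1) *ᵥ v := Iff.rfl
  have o : ∀ {x}, x ^ l = 1 → (((ρ x).1 - (ρ x⁻¹).1) * (1 + (ρ t).1)) *ᵥ v = 0 → x ∈ H := fun {x} e z => by
    obtain ⟨m, hm⟩ := (Fact.out : l.Prime).odd_of_ne_two h2
    have : x * x ∈ H := mH.2 (by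
      rw [← Matrix.mulVec_mulVec, Matrix.sub_mulVec, sub_eq_zero] at z
      rw [map_mul, Units.val_mul, ← Matrix.mulVec_mulVec, z, Matrix.mulVec_mulVec, map_inv, Units.mul_inv,
        Matrix.one_mulVec])
    have := pow_mem this (m + 1)
    rwa [← sq, ← pow_mul, show 2 * (m + 1) = l + 1 by omega, pow_succ, e, one_mul] at this
  have := L.gen H (o L.xl hx) (o L.yl hy) fun g hg => mH.2 (by
    rw [Matrix.mulVec_mulVec, show (ρ _).1 * _ = _ from Fx.conj (L.cp T hg) (L.fx T h)])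
  exact n (h.fix fun g => mH.1 (this ▸ Subgroup.mem_top g))

end Loc

theorem Loc.false [IsAlgClosed K] (L : Loc l t a b x y) (hl : l.Prime) (h2 : l ≠ 2) (h : Rp ρ) : False := by
  by_cases c : (l : K) = 0
  · have := Fact.mk hl
    have : CharP K l := (CharP.charP_iff_prime_eq_zero hl).2 c
    have : NeZero (2 : K) := ⟨fun z =>
      h2 ((Nat.prime_dvd_prime_iff_eq hl Nat.prime_two).1 ((CharP.cast_eq_zero_iff K l 2).1 z))⟩
    obtain ⟨s, c, n, e1, e2⟩ := L.pure
    exact L.same (h.ta L.t2 L.t1 c n e1 e2) h2 h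
  · exact heis_real (x := ρ x) (y := ρ y) hl h2 c (by rw [← map_pow, L.al, map_one]) ((map_ne_one_iff ρ h.inj).2 L.a1)
      (by rw [← map_mul, L.xa, map_mul]) (by rw [← map_mul, L.ya, map_mul]) (by rw [← map_commutatorElement, L.xy])
      (map_inv ρ a ▸ ρ.map_isConj L.re)

end Cfsg.Lib.Q5A
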