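import Cfsg.Agent.Lib.Q5A.Def
import Cfsg.Agent.Lib.D3.Gens
import Cfsg.Agent.Lib.Mathieu.Classes

/-!
# Q5 branch A: `A₇` and `M₁₁`
-/

set_option autoImplicit false

namespace Cfsg.Lib.Q5A

open scoped MatrixGroups Matrix commutatorElement

open Equiv in
/-- Cycle types as in `Sp4O.cases_A7`: conjugate in `S₇` to a fixed representative that is inverted by an explicit even
permutation. -/
theorem real_A7 (x : alternatingGroup (Fin 7)) (h : Nat.Coprime (orderOf x) 7) : IsConj x x⁻¹ := by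
  have key : ∀ r c : Perm (Fin 7), Perm.sign c = 1 → c * r * c⁻¹ = r⁻¹ → r.cycleType = x.1.cycleType → IsConj x x⁻¹ :=
    fun r c s e k => by
      obtain ⟨t, ht⟩ := isConj_iff.1 (Perm.isConj_iff_cycleType_eq.2 k)
      refine isConj_iff.2 ⟨⟨t * c * t⁻¹, by simp [s]⟩, Subtype.ext ?_⟩
      change t * c * t⁻¹ * x.1 * (t * c * t⁻¹)⁻¹ = x.1⁻¹
      rw [← ht, conj_inv (a := r), ← e]; group
  have h1 : x.1.cycleType.sum ≤ 7 := x.1.sum_cycleType ▸ (Finset.card_le_univ _).trans (by simp)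
  have h2 : ∀ a ∈ x.1.cycleType, 2 ≤ a := fun a => Perm.two_le_of_mem_cycleType
  have h3 := Perm.mem_alternatingGroup.1 x.2
  rw [Perm.sign_of_cycleType, neg_one_pow_eq_one_iff_even (by decide)] at h3
  have h4 := (Multiset.card_nsmul_le_sum h2).trans h1
  rw [← Subgroup.orderOf_coe, ← Perm.lcm_cycleType] at h
  have h6 : x.1.cycleType = 0 ∨ x.1.cycleType = {2, 2} ∨ x.1.cycleType = {3} ∨ x.1.cycleType = {5} ∨
      x.1.cycleType = {3, 3} ∨ x.1.cycleType = {2, 4} ∨ x.1.cycleType = {2, 2, 3} := by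
    generalize x.1.cycleType = s at *
    have : s.card = 0 ∨ s.card = 1 ∨ s.card = 2 ∨ s.card = 3 := by simp at h4; omega
    rw [Multiset.card_eq_zero, Multiset.card_eq_one, Multiset.card_eq_two, Multiset.card_eq_three] at this
    rcases this with rfl | ⟨a, rfl⟩ | ⟨a, b, rfl⟩ | ⟨a, b, c, rfl⟩
    · simp
    all_goals simp at h1 h2
    · interval_cases a <;> revert h3 h <;> decide
    · have : 2 ≤ a ∧ a < 6 ∧ 2 ≤ b ∧ b < 8 - a := by omega
      obtain ⟨_, _, _, _⟩ := this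
      interval_cases a <;> interval_cases b <;> revert h3 <;> decide
    · have : 2 ≤ a ∧ a < 4 ∧ 2 ≤ b ∧ b < 6 - a ∧ 2 ≤ c ∧ c < 8 - a - b := by omega
      obtain ⟨_, _, _, _, _, _⟩ := this
      interval_cases a <;> interval_cases b <;> interval_cases c <;> revert h3 <;> decide
  rcases h6 with e | e | e | e | e | e | e <;> rw [e] at key
  · exact key 1 1 (by simp) (by simp) (by simp)
  · exact key (swap 0 1 * swap 2 3) 1 (by simp) (by decide) (by decide +kernel)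
  · exact key (swap 0 1 * swap 1 2) (swap 1 2 * swap 3 4) (by decide) (by decide) (by decide +kernel)
  · exact key (swap 0 1 * swap 1 2 * swap 2 3 * swap 3 4) (swap 1 4 * swap 2 3) (by decide) (by decide) (by decide +kernel)
  · exact key (swap 0 1 * swap 1 2 * swap 3 4 * swap 4 5) (swap 1 2 * swap 4 5) (by decide) (by decide) (by decide +kernel)
  · exact key (swap 0 1 * swap 1 2 * swap 2 3 * swap 4 5) (swap 1 3 * swap 4 5) (by decide) (by decide) (by decide +kernel)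
  · exact key (swap 0 1 * swap 1 2 * swap 3 4 * swap 5 6) (swap 1 2 * swap 3 4) (by decide) (by decide) (by decide +kernel)

open Mathieu Grp Calc in
/-- A Sylow 3-subgroup `S` has order `9`, so is abelian; every `1 ≠ g ∈ S` has `9 ∣ |C(g)| ≠ 7920`, so lies in the class
with centraliser order `18` (`Mathieu.clsS11`, as in `Dim3.not_M11`).  Take `x ∈ S` of order `3`, `y ∈ S - {1, x, x⁻¹}`. -/
theorem nine_M11 : ∃ x y : Spor.M11, x ^ 3 = 1 ∧ y ^ 3 = 1 ∧ x * y = y * x ∧ x ≠ 1 ∧ y ≠ 1 ∧ y ≠ x ∧ y ≠ x⁻¹ ∧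
    IsConj x x⁻¹ ∧ IsConj x y ∧ IsConj x (x * y) ∧ IsConj x (x * y⁻¹) := by
  classical
  haveI : Finite Spor.M11 := Nat.finite_of_card_ne_zero (by rw [card_M11]; norm_num)
  haveI := simple_M11
  haveI : Fact (Nat.Prime 3) := ⟨Nat.prime_three⟩
  obtain ⟨S, hS⟩ := Sylow.exists_subgroup_card_pow_prime (G := Spor.M11) 3 (n := 2) (by rw [card_M11]; norm_num)
  have cm : ∀ a ∈ S, ∀ b ∈ S, a * b = b * a := fun a ha b hb =>
    congrArg Subtype.val ((IsPGroup.isMulCommutative_of_card_eq_prime_sq hS).1.1 ⟨a, ha⟩ ⟨b, hb⟩)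
  have key : ∀ g ∈ S, g ≠ 1 → ∃ c ∈ c11, g ∈ cl ⊤ (dec (Calc.Rep 24 5 Golay.G.pt) c.1) ∧ 9 ∣ c.2 ∧ c.2 ≠ 7920 :=
    fun g hg n => by
      obtain ⟨c, hc, h1⟩ := clsS11.cover g trivial
      have h2 := (card_cen_of_mem_cl h1).trans (clsS11.cent c hc)
      rw [top_inf_eq] at h2
      refine ⟨c, hc, h1, h2 ▸ (show 3 ^ 2 ∣ _ from hS ▸ Subgroup.card_dvd_of_le fun a ha =>
        Subgroup.mem_centralizer_singleton_iff.2 (cm a ha g hg)), fun h3 => ?_⟩
      have h4 := Subgroup.eq_top_of_card_eq _ (h2.trans (h3.trans card_M11.symm))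
      have h5 : g ∈ Subgroup.center Spor.M11 := Subgroup.mem_center_iff.2 fun x =>
        Subgroup.mem_centralizer_singleton_iff.1 (h4 ▸ Subgroup.mem_top x)
      rcases IsSimpleGroup.eq_bot_or_eq_top_of_normal (Subgroup.center Spor.M11) inferInstance with h6 | h6
      · exact n (by simpa [h6] using h5)
      · have := clsS11.cent _ (show c11[1] ∈ c11 from List.getElem_mem _)
        rw [top_inf_eq, Subgroup.centralizer_eq_top_iff_subset.2 (by rw [h6]; simp), Subgroup.card_top, card_M11] at this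
        exact absurd this (by decide)
  have cj : ∀ g ∈ S, g ≠ 1 → ∀ g' ∈ S, g' ≠ 1 → IsConj g g' := fun g hg n g' hg' n' => by
    obtain ⟨c, c1, c2, c3, c4⟩ := key g hg n
    obtain ⟨d, d1, d2, d3, d4⟩ := key g' hg' n'
    obtain rfl := (by decide +kernel : ∀ c ∈ c11, 9 ∣ c.2 → c.2 ≠ 7920 → ∀ d ∈ c11, 9 ∣ d.2 →
      d.2 ≠ 7920 → c = d) c c1 c3 c4 d d1 d3 d4
    obtain ⟨s, -, hs⟩ := cl_trans (cl_symm c2) d2
    exact isConj_iff.2 ⟨s, hs⟩
  obtain ⟨⟨x, hx⟩, o⟩ := exists_prime_orderOf_dvd_card' (G := S) 3 (by rw [hS]; norm_num)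
  have x3 : x ^ 3 = 1 := congrArg Subtype.val (orderOf_dvd_iff_pow_eq_one.1 o.dvd)
  have x1 : x ≠ 1 := fun e => by
    rw [show (⟨x, hx⟩ : S) = 1 from Subtype.ext e, orderOf_one] at o
    omega
  obtain ⟨y, hy, y1, y2, y3⟩ : ∃ y ∈ S, y ≠ 1 ∧ y ≠ x ∧ y ≠ x⁻¹ := by
    by_contra! k
    have : Nat.card S ≤ 3 :=
      calc Nat.card S = (S : Set Spor.M11).ncard := rfl
        _ ≤ (({1, x, x⁻¹} : Finset Spor.M11) : Set Spor.M11).ncard :=
          Set.ncard_le_ncard (fun x hx => by have := k x hx; simp; tauto) (Finset.finite_toSet _)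
        _ ≤ _ := by rw [Set.ncard_coe_finset]; exact Finset.card_le_three
    omega
  have c := cj x hx x1
  refine ⟨x, y, x3, ?_, cm x hx y hy, x1, y1, y2, y3, c _ (inv_mem hx) (inv_ne_one.2 x1), c y hy y1,
    c _ (mul_mem hx hy) fun e => y3 (eq_inv_of_mul_eq_one_right e),
    c _ (mul_mem hx (inv_mem hy)) fun e => y2 (mul_inv_eq_one.1 e).symm⟩
  obtain ⟨s, rfl⟩ := isConj_iff.1 (c y hy y1)
  rw [conj_pow, x3, mul_one, mul_inv_cancel]

end Cfsg.Lib.Q5A
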